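import Cfsg.Agent.Lib.Clifford.Extension
import Cfsg.Agent.Lib.Clifford.PElt
import Cfsg.Agent.Lib.Char.Galois

/-! Schur's bound for `p`-groups with a rational character; rational extensions of invariant characters. -/

set_option autoImplicit false

namespace Cfsg.Lib.LinDeg

open Cfsg.Lib.Char Cfsg.Lib.Clifford Cfsg.Lib.Induce Subgroup
open scoped Nat

variable {G : Type*} [Group G] [Fintype G] {p : ℕ} [hp : Fact p.Prime]

theorem lower_bound {ψ : G → ℂ} (hψ : IsCharacter G ψ) {n : ℕ} (hn : ψ 1 = n) {g : G} {e : ℕ}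
    (hg : g ^ p ^ e = 1) {c : ℤ} (hc : ∀ k, ¬ p ∣ k → ψ (g ^ k) = c) : 0 ≤ n + (p - 1) * c := by
  classical
  obtain ⟨m, ε, -, h2, h3⟩ := hψ.exists_eigenvalues g
  have hN : ∀ i, ε i ^ (p * p ^ e) = 1 := fun i => by
    obtain ⟨t, ht⟩ := orderOf_dvd_of_pow_eq_one hg
    rw [ht, mul_left_comm, pow_mul, h2, one_pow]
  have h4 : 0 ≤ (∑ k ∈ Finset.range (p * p ^ e), ψ (g ^ (k + 1))).re := by
    simp only [h3]
    rw [Finset.sum_comm, Complex.re_sum]
    refine Finset.sum_nonneg fun i _ => ?_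
    by_cases h : ε i = 1
    · simp only [h, one_pow, Finset.sum_const, nsmul_eq_mul, mul_one, Complex.natCast_re]
      positivity
    · simp only [pow_succ, ← Finset.sum_mul]
      rw [geom_sum_eq h, hN]
      simp
  rw [Complex.re_sum, ← Finset.sum_filter_add_sum_filter_not _ (fun k => p ∣ k + 1)] at h4
  have h5 := Finset.card_filter_add_card_filter_not (s := Finset.range (p * p ^ e)) (fun k => p ∣ k + 1)
  have h6 := Nat.card_multiples (p * p ^ e) p
  rw [Nat.mul_div_cancel_left _ hp.out.pos] at h6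
  rw [h6, Finset.card_range] at h5
  have h7 := Finset.sum_le_card_nsmul ((Finset.range (p * p ^ e)).filter fun k => p ∣ k + 1)
    (fun k => (ψ (g ^ (k + 1))).re) n fun k _ => (Complex.re_le_norm _).trans (hψ.norm_le_of_apply_one hn _)
  rw [Finset.sum_congr (s₁ := Finset.filter (fun k => ¬ p ∣ k + 1) _) rfl (g := fun _ => (c : ℝ)) fun k hk => by
    rw [hc _ (Finset.mem_filter.1 hk).2]; simp, Finset.sum_const] at h4
  have h8 : (((Finset.range (p * p ^ e)).filter fun k => ¬ p ∣ k + 1).card : ℝ) = p * p ^ e - p ^ e := by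
    rw [eq_sub_iff_add_eq']; exact_mod_cast h5
  rw [h6, nsmul_eq_mul] at h7
  rw [nsmul_eq_mul, h8] at h4
  have h9 : (0 : ℝ) < p ^ e := pow_pos (Nat.cast_pos.2 hp.out.pos) e
  have : (0 : ℝ) ≤ p ^ e * (n + (p - 1) * c) := by push_cast at h7; linarith
  exact_mod_cast (mul_nonneg_iff_of_pos_left h9).1 this

/-- Schur's bound. -/
theorem card_dvd_of_rational (hG : IsPGroup p G) {ψ : G → ℂ} (hψ : IsCharacter G ψ) {n : ℕ} (hn : ψ 1 = n)
    (hf : ∀ g, ψ g = ψ 1 → g = 1) (hr : ∀ g k, ¬ p ∣ k → ψ (g ^ k) = ψ g) :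
    Nat.card G ∣ p ^ (n / (p - 1)) * (n / (p - 1))! := by
  classical
  set m := n / (p - 1)
  have hψ' := hψ.isGeneralizedCharacter
  let θ : G → ℂ := ∏ j ∈ Finset.range m, (((n - p * (j + 1) : ℤ) : ℂ) • (fun _ => (-1 : ℂ)) + ψ)
  have hθ : IsGeneralizedCharacter G θ := (genCharSubring G).prod_mem fun j _ =>
    (isGeneralizedCharacter_one.neg.intCast_smul _).add hψ'
  have h1 : θ 1 = (p ^ m * m ! : ℕ) := by
    simp only [θ, Finset.prod_apply, Pi.add_apply, Pi.smul_apply, hn]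
    rw [← Finset.prod_range_add_one_eq_factorial, Nat.cast_mul, Nat.cast_prod, Nat.cast_pow,
      ← Finset.card_range m, ← Finset.prod_const, Finset.card_range, ← Finset.prod_mul_distrib]
    exact Finset.prod_congr rfl fun j _ => by simp
  have h2 : ∀ g, g ≠ 1 → θ g = 0 := fun g hg => by
    obtain ⟨e, he⟩ := hG g
    obtain ⟨c, hc⟩ := hψ'.exists_int_of_forall_pow (g := g) fun k hk => hr g k fun h => by
      obtain ⟨_ | i, -, hi⟩ := (Nat.dvd_prime_pow hp.out).1 (orderOf_dvd_of_pow_eq_one he)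
      · exact hg (orderOf_eq_one_iff.1 hi)
      · exact hp.out.one_lt.ne' (Nat.eq_one_of_dvd_coprimes hk h (hi ▸ dvd_pow_self p i.succ_ne_zero))
    obtain ⟨j, hj⟩ := int_dvd_sub_of_pow_eq_one hψ' he hc (n := n) (by simpa using hn)
    have h3 := lower_bound hψ hn he fun k hk => (hr g k hk).trans hc
    have h4 : c ≤ n := by
      have := (Complex.re_le_norm _).trans (hψ.norm_le_of_apply_one hn g)
      rw [hc] at this
      exact_mod_cast this
    have h5 : c ≠ n := fun e => hg (hf g (by rw [hc, hn, e]; simp))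
    have hp0 : (1 : ℤ) < p := by exact_mod_cast hp.out.one_lt
    have h6 : 0 < j := by
      by_contra! H
      have : (p : ℤ) * j ≤ 0 := mul_nonpos_of_nonneg_of_nonpos (by omega) H
      omega
    obtain ⟨i, rfl⟩ : ∃ i : ℕ, j = i + 1 := ⟨(j - 1).toNat, by omega⟩
    have h7 : i + 1 ≤ m := (Nat.le_div_iff_mul_le (by have := hp.out.one_lt; omega)).2 (by
      zify [hp.out.one_le]
      nlinarith)
    simp only [θ, Finset.prod_apply]
    refine Finset.prod_eq_zero (Finset.mem_range.2 h7) ?_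
    rw [Pi.add_apply, Pi.smul_apply, hc, ← hj]
    simp
  obtain ⟨t, ht⟩ := hθ.exists_inner_eq_int isGeneralizedCharacter_one
  rw [classInner_one_right, Finset.sum_eq_single 1 (fun g _ hg => h2 g hg) (by simp), h1,
    inv_mul_eq_iff_eq_mul₀ (card_ne_zero_complex G)] at ht
  exact Int.natCast_dvd_natCast.1 ⟨t, by exact_mod_cast ht⟩

omit [Fintype G] in
theorem factorization_le {n a : ℕ} (h : p ^ a ∣ p ^ (n / (p - 1)) * (n / (p - 1))!) :
    a ≤ ∑ i ∈ Finset.range (n + 1), n / ((p - 1) * p ^ i) := by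
  have h1 : n / (p - 1) ≤ n := Nat.div_le_self _ _
  rw [padicValNat_dvd_iff_le (mul_ne_zero (pow_ne_zero _ hp.out.ne_zero) (Nat.factorial_ne_zero _)),
    padicValNat.mul (pow_ne_zero _ hp.out.ne_zero) (Nat.factorial_ne_zero _), padicValNat.prime_pow,
    padicValNat_factorial (b := n + 1) (Nat.lt_succ_of_le ((Nat.log_le_self _ _).trans h1))] at h
  rw [Finset.range_eq_Ico, Finset.sum_eq_sum_Ico_succ_bot n.succ_pos]
  simpa only [← Nat.div_div_eq_div_mul, pow_zero, Nat.div_one] using h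

variable (N : Subgroup G) [hN : N.Normal]

theorem exists_ext_orbit [Fintype N] (hcop : (Nat.card N).Coprime N.index) {θ : N → ℂ} (hθ : IsIrrCharacter N θ)
    [Fintype (G ⧸ inertia N θ)] : ∃ ψ, IsCharacter G ψ ∧
      (fun n : N => ψ n) = ∑ q : G ⧸ inertia N θ, conjChar N q.out⁻¹ θ ∧
        ∀ σ : ℂ →+* ℂ, (∀ z : ℂ, z ^ Nat.card N = 1 → σ z = z) → ∀ g, σ (ψ g) = ψ g := by
  have hNT := le_inertia N hθ.isClassFunction
  have hθ' := (isIrrCharacter_subgroupOf_iff hNT).2 hθ
  have hc : (N.subgroupOf (inertia N θ)).index.Coprime (Nat.card (N.subgroupOf (inertia N θ))) := by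
    rw [Core.card_subgroupOf_of_le hNT]
    exact hcop.symm.coprime_dvd_left (relIndex_dvd_index_of_normal N _)
  have hc' := coprime_detOrder_mul_charDegree _ hθ' hc
  obtain ⟨χ, h1, h2, h3⟩ := exists_extension_detOrder_eq _ hθ' (invariant_subgroupOf N le_rfl) hc'
  refine ⟨indFun _ χ, isCharacter_indFun _ h1.isCharacter, ?_, fun σ hσ g => ?_⟩
  · rw [res_indFun_of_le N hNT, show (fun n : N => χ ⟨n, hNT n.2⟩) = θ from
      funext fun n => h2 ⟨⟨n, hNT n.2⟩, n.2⟩, sum_conjChar_eq, smul_smul,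
      inv_mul_cancel₀ (card_ne_zero_complex _), one_smul]
  · have : (fun g => σ (χ g)) = χ := eq_of_res_eq_of_coprime_detOrder _ h1.isCharacter (by rwa [funext h2])
      (h1.isCharacter.map_ringHom σ) (fun n => by
        rw [h2]
        exact hθ.isGeneralizedCharacter.map_apply_eq_self_of_dvd σ (orderOf_dvd_natCard _) hσ)
      (by rw [charDegree_congr (h2 1)]; exact hc'.coprime_mul_left_right) (h3 ▸ hc'.coprime_mul_right_right)
      (by rw [detOrder_map_ringHom h1.isCharacter, h3]; exact hc'.coprime_mul_right_right)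
    exact (congrFun (indFun_map_ringHom _ σ χ) g).symm.trans (by rw [this])

theorem exists_ext (hcop : (Nat.card N).Coprime N.index) (d : ℕ) : ∀ {η : N → ℂ}, IsCharacter N η →
    (∀ g, conjChar N g η = η) → η 1 = d → ∃ ψ, IsCharacter G ψ ∧ (fun n : N => ψ n) = η ∧
      ∀ σ : ℂ →+* ℂ, (∀ z : ℂ, z ^ Nat.card N = 1 → σ z = z) → ∀ g, σ (ψ g) = ψ g := by
  classical
  induction d using Nat.strong_induction_on with | _ d ih
  intro η hη hi hd
  by_cases h0 : η = 0
  · exact ⟨0, isCharacter_zero, h0.symm, by simp⟩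
  obtain ⟨θ, hθ, h1⟩ := hη.isClassFunction.exists_irr_inner_ne_zero h0
  obtain ⟨ψ, h2, h3, h4⟩ := exists_ext_orbit N hcop hθ
  have h5 : IsCharacter N (η - fun n : N => ψ n) := by
    refine (hη.isGeneralizedCharacter.sub (h2.restrict N).isGeneralizedCharacter).isCharacter_of_inner_nonneg
      fun ξ hξ => ?_
    obtain ⟨a, ha⟩ := hη.exists_inner_eq_nat hξ.isCharacter
    rw [classInner_sub_left, h3, classInner_sum_left, ha]
    by_cases h : ∃ q : G ⧸ inertia N θ, conjChar N q.out⁻¹ θ = ξ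
    · obtain ⟨q, rfl⟩ := h
      rw [Finset.sum_eq_single q (fun q' _ hq => (isIrrCharacter_conjChar N hθ _).inner_eq_zero_of_ne hξ
        fun e => hq (conjChar_out_injective N θ e)) (by simp), hξ.inner_self]
      rw [← hi q.out⁻¹, classInner_conjChar] at ha
      have : a ≠ 0 := fun e => h1 (by rw [ha, e]; simp)
      simpa using Nat.one_le_iff_ne_zero.2 this
    · rw [Finset.sum_eq_zero fun q _ => (isIrrCharacter_conjChar N hθ _).inner_eq_zero_of_ne hξ fun e => h ⟨q, e⟩]
      simp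
  obtain ⟨a, ha⟩ := h5.exists_apply_one
  obtain ⟨b, hb0, hb⟩ := hθ.exists_apply_one
  have h6 : a + Fintype.card (G ⧸ inertia N θ) * b = d := by
    have := congrFun h3 1
    simp only [Finset.sum_apply, conjChar_apply, OneMemClass.coe_one, mul_one, mul_inv_cancel] at this
    replace this : ψ 1 = ∑ _q : G ⧸ inertia N θ, θ 1 := this
    rw [hb, Finset.sum_const, Finset.card_univ, nsmul_eq_mul] at this
    rw [Pi.sub_apply, hd, OneMemClass.coe_one, this, sub_eq_iff_eq_add] at ha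
    exact_mod_cast ha.symm
  obtain ⟨ψ', h7, h8, h9⟩ := ih a (by have := Nat.mul_pos (Fintype.card_pos (α := G ⧸ inertia N θ)) hb0; omega) h5
    (fun g => by rw [conjChar_sub, hi, conjChar_res N h2.isClassFunction]) ha
  exact ⟨ψ' + ψ, h7.add h2, eq_sub_iff_add_eq.1 h8, fun σ hσ g => by rw [Pi.add_apply, map_add, h9 σ hσ, h4 σ hσ]⟩

end Cfsg.Lib.LinDeg
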