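import Cfsg.Agent.Lib.CharDeg.DerivedP
import Cfsg.Agent.Lib.Transfer.Criteria
import Cfsg.Agent.Lib.Clifford.Monomial
import Cfsg.Agent.Lib.Clifford.Degree
import Cfsg.Agent.Lib.Core.MinNormal
import Cfsg.Agent.Lib.Coprime.Action
import Cfsg.Agent.Lib.Char.Burnside

/-! Winter's theorem on solvable linear groups with a non-normal Sylow `p`-subgroup. -/

set_option autoImplicit false

namespace Cfsg.Lib.LinDeg

open Cfsg Cfsg.Lib.Char Subgroup
open scoped commutatorElement

universe u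

/-- The subgroup generated by the `p`-elements. -/
def pgen (p : ℕ) (G : Type*) [Group G] : Subgroup G := closure {x : G | ∃ k : ℕ, x ^ p ^ k = 1}

theorem map_pgen_le {G H : Type*} [Group G] [Group H] (p : ℕ) (f : G →* H) :
    (pgen p G).map f ≤ pgen p H := by
  rw [pgen, MonoidHom.map_closure]
  refine closure_mono ?_
  rintro _ ⟨x, ⟨k, hk⟩, rfl⟩
  exact ⟨k, by rw [← map_pow, hk, map_one]⟩

theorem pgen_normal {G : Type*} [Group G] (p : ℕ) : (pgen p G).Normal :=
  ⟨fun x hx g => map_pgen_le p (MulAut.conj g).toMonoidHom ⟨x, hx, rfl⟩⟩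

theorem pgen_eq_top_of_surjective {G H : Type*} [Group G] [Group H] {p : ℕ} (f : G →* H)
    (hf : Function.Surjective f) (h : pgen p G = ⊤) : pgen p H = ⊤ := by
  rw [eq_top_iff, ← map_top_of_surjective f hf, ← h]
  exact map_pgen_le p f

theorem pgen_pgen {G : Type*} [Group G] (p : ℕ) : pgen p (pgen p G) = ⊤ := by
  rw [eq_top_iff]
  rintro ⟨x, hx⟩ -
  induction hx using closure_induction with
  | mem x hx =>
    obtain ⟨k, hk⟩ := hx
    exact subset_closure ⟨k, Subtype.ext (by simpa using hk)⟩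
  | one => exact one_mem _
  | mul x y hx hy h1 h2 => exact mul_mem h1 h2
  | inv x hx h1 => exact inv_mem h1

theorem isPGroup_zpowers {G : Type*} [Group G] {p k : ℕ} {x : G} (h : x ^ p ^ k = 1) :
    IsPGroup p (zpowers x) := by
  rintro ⟨_, m, rfl⟩
  refine ⟨k, Subtype.ext ?_⟩
  simp only [SubmonoidClass.coe_pow, OneMemClass.coe_one]
  rw [← zpow_natCast, ← zpow_mul, mul_comm, zpow_mul, zpow_natCast, h, one_zpow]

theorem pow_sub_modEq {p r a c : ℕ} (hp : p.Prime) (hr : r.Prime) (hne : r ≠ p) (hca : c ≤ a)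
    (h : r ^ a ≡ r ^ c [MOD p]) : r ^ (a - c) ≡ 1 [MOD p] := by
  have hcop : Nat.Coprime p (r ^ c) :=
    Nat.Coprime.pow_right _ ((Nat.coprime_primes hp hr).2 hne.symm)
  refine Nat.ModEq.cancel_left_of_coprime (c := r ^ c) hcop ?_
  rwa [← pow_add, Nat.add_sub_cancel' hca, mul_one]

/-- A `p`-element not centralizing a normal `r`-subgroup. -/
theorem exists_pow_modEq {G : Type*} [Group G] [Finite G] {p r a k : ℕ} (hp : p.Prime)
    (hr : r.Prime) (hne : r ≠ p) {N : Subgroup G} [N.Normal] (hN : Nat.card N = r ^ a) {x : G}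
    (hx : x ^ p ^ k = 1) (hc : ¬ N ≤ centralizer (zpowers x : Set G)) :
    ∃ c, c < a ∧ Nat.card ↥(N ⊓ centralizer (zpowers x : Set G)) = r ^ c ∧
      r ^ (a - c) ≡ 1 [MOD p] := by
  haveI := Fact.mk hp
  have h1 := Cfsg.Lib.Transfer.card_modEq_card_inf_centralizer (T := N) (isPGroup_zpowers hx)
    (by rw [normalizer_eq_top]; exact le_top)
  have h2 : Nat.card ↥(N ⊓ centralizer (zpowers x : Set G)) ∣ r ^ a :=
    hN ▸ card_dvd_of_le inf_le_left
  obtain ⟨c, hc1, hc2⟩ := (Nat.dvd_prime_pow hr).1 h2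
  refine ⟨c, lt_of_le_of_ne hc1 fun e => hc ?_, hc2, pow_sub_modEq hp hr hne hc1 ?_⟩
  · have : N ⊓ centralizer (zpowers x : Set G) = N :=
      eq_of_le_of_card_ge inf_le_left (by rw [hc2, hN, e])
    exact this ▸ inf_le_right
  · rwa [hN, hc2] at h1

theorem le_center_of_pgen {G : Type*} [Group G] {p : ℕ} (h : pgen p G = ⊤) {N : Subgroup G}
    (hc : ∀ (x : G) (k : ℕ), x ^ p ^ k = 1 → N ≤ centralizer (zpowers x : Set G)) :
    N ≤ center G := by
  have : pgen p G ≤ centralizer (N : Set G) := by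
    rw [pgen, closure_le]
    rintro x ⟨k, hk⟩ y hy
    exact ((hc x k hk hy) x (mem_zpowers x)).symm
  rw [h] at this
  intro y hy
  rw [mem_center_iff]
  intro g
  exact (this (mem_top g) y hy).symm

/-- The primitive permutation case. -/
theorem exists_of_isCoatom (p : ℕ) (hp : p.Prime) (n : ℕ) : ∀ (G : Type u) [Group G] [Finite G],
    Nat.card G = n → Group.IsSolvable G → pgen p G = ⊤ → ∀ H : Subgroup G, IsCoatom H →
    ¬ p ∣ H.index → ∃ q, IsPrimePow q ∧ q ∣ H.index ∧ q ≡ 1 [MOD p] := by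
  induction n using Nat.strong_induction_on with
  | _ n ih =>
  intro G _ _ hn hs hg H hH hpH
  haveI : Nontrivial G := by
    by_contra h
    rw [not_nontrivial_iff_subsingleton] at h
    exact hH.1 (Subsingleton.elim _ _)
  obtain ⟨N, r, hN, hr, hel⟩ := Cfsg.Lib.Core.exists_isMinNormal_elementary (G := G)
  haveI := hN.normal
  by_cases hNH : N ≤ H
  · have hlt : Nat.card (G ⧸ N) < n := by
      rw [← hn, ← N.card_mul_index, ← index_eq_card]
      have := (one_lt_card_iff_ne_bot N).2 hN.ne_bot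
      have h0 : 0 < N.index := Nat.pos_of_ne_zero index_ne_zero_of_finite
      nlinarith
    have hi : (H.map (QuotientGroup.mk' N)).index = H.index :=
      index_map_eq _ (QuotientGroup.mk'_surjective N) (by rwa [QuotientGroup.ker_mk'])
    have := ih _ hlt (G ⧸ N) rfl inferInstance
      (pgen_eq_top_of_surjective _ (QuotientGroup.mk'_surjective N) hg) _
      (Cfsg.Lib.Core.isCoatom_map_mk' hNH hH) (by rwa [hi])
    rwa [hi] at this
  · have h1 := Cfsg.Lib.Core.sup_eq_top_of_isCoatom hH hNH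
    haveI := hel.1
    have h2 := hN.inf_eq_bot_of_sup_eq_top hH.1 h1
    have h3 := Cfsg.Lib.Core.index_eq_card_of_inf_eq_bot h2 h1
    haveI := Fact.mk hr
    obtain ⟨a, ha⟩ := IsPGroup.iff_card.1 (Cfsg.Lib.Core.isPGroup_of_isElementaryAbelian hel)
    have ha0 : a ≠ 0 := by
      rintro rfl
      exact hN.ne_bot (by simpa using ha)
    have hne : r ≠ p := by
      rintro rfl
      exact hpH (by rw [h3, ha]; exact dvd_pow_self _ ha0)
    by_cases hc : ∀ (x : G) (k : ℕ), x ^ p ^ k = 1 → N ≤ centralizer (zpowers x : Set G)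
    · exfalso
      have hZ := le_center_of_pgen hg hc
      haveI : H.Normal := by
        rw [← normalizer_eq_top_iff, eq_top_iff, ← h1]
        exact sup_le (hZ.trans (center_le_normalizer _)) le_normalizer
      apply hH.1
      rw [eq_top_iff, ← hg, pgen, closure_le]
      rintro x ⟨k, hk⟩
      have e1 : ((x : G ⧸ H)) ^ p ^ k = 1 := by
        rw [← QuotientGroup.mk_pow, hk, QuotientGroup.mk_one]
      have e2 : ((x : G ⧸ H)) ^ H.index = 1 := pow_card_eq_one'
      have e3 : Nat.Coprime (p ^ k) H.index :=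
        Nat.Coprime.pow_left _ ((Nat.Prime.coprime_iff_not_dvd hp).2 hpH)
      have e4 := pow_gcd_eq_one.2 ⟨e1, e2⟩
      rw [e3, pow_one] at e4
      exact (QuotientGroup.eq_one_iff x).1 e4
    · push Not at hc
      obtain ⟨x, k, hk, hx⟩ := hc
      obtain ⟨c, hc1, -, hc3⟩ := exists_pow_modEq hp hr hne ha hk hx
      refine ⟨r ^ (a - c), ⟨r, a - c, hr.prime, by omega, rfl⟩, ?_, hc3⟩
      rw [h3, ha]
      exact pow_dvd_pow _ (by omega)

/-- A constituent of the restriction of a faithful character to a class-two subgroup. -/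
theorem sq_eq_relIndex {G : Type*} [Group G] [Finite G] {χ : G → ℂ} (hχ : IsIrrCharacter G χ)
    (hk : charKer χ = ⊥) {U : Subgroup G} [Fintype U] (hZ : center G ≤ U)
    (hU : ⁅U, U⁆ ≤ center G) (hc : U ⊓ centralizer (U : Set G) ≤ center G) {η : U → ℂ}
    (hη : IsIrrCharacter U η) (h : classInner (fun x : U => χ x) η ≠ 0) :
    charDegree η ^ 2 = (center G).relIndex U := by
  have hcen : center U = (center G).subgroupOf U := by
    ext x
    rw [mem_subgroupOf, mem_center_iff]
    constructor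
    · intro hx
      exact hc ⟨x.2, fun y hy => congrArg Subtype.val (hx ⟨y, hy⟩)⟩
    · intro hx y
      exact Subtype.ext (mem_center_iff.1 hx y)
  have hf : ∀ z : U, (z : G) ∈ center G → η z = η 1 → z = 1 := by
    intro z hz e
    obtain ⟨ω, -, hω⟩ := mem_charCenter.1 (hχ.center_le_charCenter hz)
    have h1 : classInner (fun x : U => χ x) η = ω * classInner (fun x : U => χ x) η := by
      rw [classInner_def, mul_left_comm, Finset.mul_sum _ _ ω]
      congr 1
      rw [← Equiv.sum_comp (Equiv.mulLeft z)]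
      refine Finset.sum_congr rfl fun y _ => ?_
      simp only [Equiv.coe_mulLeft, Subgroup.coe_mul]
      rw [hω, hη.isCharacter.apply_mul_of_apply_eq e, mul_assoc]
    have h2 : ω = 1 := by
      have : (ω - 1) * classInner (fun x : U => χ x) η = 0 := by linear_combination -h1
      exact sub_eq_zero.1 ((mul_eq_zero.1 this).resolve_right h)
    have h3 : (z : G) ∈ charKer χ := mem_charKer.2 fun x => by rw [hω, h2, one_mul]
    rw [hk, mem_bot] at h3
    exact Subtype.ext h3
  rw [relIndex, ← hcen]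
  refine Cfsg.Lib.CharDeg.charDegree_sq_eq_index_center_of_vanish hη fun y hy => ?_
  rw [mem_center_iff] at hy
  push Not at hy
  obtain ⟨w, hw⟩ := hy
  have hm : ((⁅w, y⁆ : U) : G) ∈ center G := hU (commutator_mem_commutator w.2 y.2)
  exact Cfsg.Lib.CharDeg.vanish_of_commutator_central hη (w := w) (by rw [hcen]; exact hm)
    fun e => hw (commutatorElement_eq_one_iff_mul_comm.1 (hf _ hm e))

/-- The set of prime powers that the theorem produces. -/
def Bad (p n : ℕ) : Prop :=
  ∃ q : ℕ, IsPrimePow q ∧ q ∣ n ∧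
    ((q : ℤ) ≡ -1 [ZMOD p] ∨ (q : ℤ) ≡ 0 [ZMOD p] ∨ (q : ℤ) ≡ 1 [ZMOD p])

theorem Bad.of_dvd {p m n : ℕ} (h : Bad p m) (hd : m ∣ n) : Bad p n := by
  obtain ⟨q, h1, h2, h3⟩ := h
  exact ⟨q, h1, h2.trans hd, h3⟩

theorem bad_of_sq {p q n : ℕ} (hp : p.Prime) (hq : IsPrimePow q) (hd : q ∣ n)
    (h : q ^ 2 ≡ 1 [MOD p]) : Bad p n := by
  refine ⟨q, hq, hd, ?_⟩
  have h1 : (p : ℤ) ∣ ((q : ℤ) + 1) * ((q : ℤ) - 1) := by
    have := (Int.natCast_modEq_iff.2 h).symm.dvd
    push_cast at this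
    convert this using 1
    ring
  rcases (Nat.prime_iff_prime_int.1 hp).dvd_or_dvd h1 with h2 | h2
  · exact Or.inl (Int.ModEq.symm (Int.modEq_iff_dvd.2 (by simpa using h2)))
  · exact Or.inr (Or.inr (Int.ModEq.symm (Int.modEq_iff_dvd.2 h2)))

/-- The primitive case. -/
theorem bad_of_primitive {G : Type*} [Group G] [Fintype G] {p : ℕ} (hp : p.Prime)
    (hs : Group.IsSolvable G) (hg : pgen p G = ⊤) {χ : G → ℂ} (hχ : IsIrrCharacter G χ)
    (hk : charKer χ = ⊥)
    (hprim : ∀ (T : Subgroup G) (ψ : T → ℂ), T ≠ ⊤ → IsIrrCharacter T ψ → indFun T ψ ≠ χ)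
    (hZ : center G ≠ ⊤) : Bad p (charDegree χ) := by
  classical
  have hcc := hχ.isCharacter.charCenter_le_center hk
  obtain ⟨E, hE, -⟩ := Cfsg.Lib.Core.exists_isChiefFactor_le (W := center G) (V := ⊤)
    inferInstance inferInstance (lt_top_iff_ne_top.2 hZ)
  obtain ⟨r, hr, hEE, -, k, hk0, hidx⟩ :=
    Cfsg.Lib.Core.exists_prime_of_isChiefFactor hE inferInstance
  haveI := hE.2.1
  have hZE : center G ≤ E := hE.1.le
  have hEc : E ⊓ centralizer (E : Set G) ≤ center G := by
    rcases Cfsg.Lib.Clifford.le_charCenter_or_induced hχ (E ⊓ centralizer (E : Set G))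
      (fun a ha b hb => by rw [(hb.2 a ha.1)]; simp) with h | ⟨T, ψ, -, h1, h2, h3⟩
    · exact h.trans hcc
    · exact absurd h3 (hprim T ψ h1 h2)
  have hcon : ∀ (U : Subgroup G), ∃ η : U → ℂ, IsIrrCharacter U η ∧
      classInner (fun x : U => χ x) η ≠ 0 := fun U =>
    (hχ.isClassFunction.restrict U).exists_irr_inner_ne_zero fun e =>
      hχ.apply_one_ne_zero (congrFun e 1)
  obtain ⟨η, hη, hη2⟩ := hcon E
  have h1 := sq_eq_relIndex hχ hk hZE hEE hEc hη hη2
  have h2 := Cfsg.Lib.Clifford.charDegree_dvd_charDegree_of_over E hχ hη hη2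
  rw [hidx] at h1
  obtain ⟨a, -, ha⟩ := (Nat.dvd_prime_pow hr).1
    ((dvd_pow_self (charDegree η) two_ne_zero).trans h1.dvd)
  have hka : k = a * 2 := by
    rw [ha, ← pow_mul] at h1
    exact (Nat.pow_right_injective hr.two_le h1).symm
  by_cases hne : r = p
  · subst hne
    refine ⟨r, hr.isPrimePow, (dvd_pow_self r (by omega)).trans (ha ▸ h2), Or.inr (Or.inl ?_)⟩
    simp [Int.modEq_zero_iff_dvd]
  have hcard : Nat.card (E.map (QuotientGroup.mk' (center G))) = r ^ k := by
    rw [← hidx, ← relIndex_ker, QuotientGroup.ker_mk']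
  haveI : (E.map (QuotientGroup.mk' (center G))).Normal :=
    Normal.map inferInstance _ (QuotientGroup.mk'_surjective _)
  by_cases hc : ∀ (x : G ⧸ center G) (k : ℕ), x ^ p ^ k = 1 →
      E.map (QuotientGroup.mk' (center G)) ≤ centralizer (zpowers x : Set (G ⧸ center G))
  · exfalso
    have h3 := le_center_of_pgen
      (pgen_eq_top_of_surjective _ (QuotientGroup.mk'_surjective (center G)) hg) hc
    obtain ⟨e, he1, he2⟩ := SetLike.exists_of_lt hE.1
    obtain ⟨T, ψ, h4, h5, h6⟩ := Cfsg.Lib.Clifford.exists_induced_of_cyclic_normal hχ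
      (x := e) (fun h => he2 (hcc h)) (fun g => by
        have h7 := mem_center_iff.1 (h3 ⟨e, he1, rfl⟩) (g : G ⧸ center G)
        have h8 : g * e * g⁻¹ * e⁻¹ ∈ center G := by
          rw [← QuotientGroup.eq_one_iff]
          simp only [QuotientGroup.mk_mul, QuotientGroup.mk_inv]
          rw [QuotientGroup.mk'_apply] at h7
          rw [h7]; group
        have := mul_mem_sup (hχ.center_le_charCenter h8) (mem_zpowers e)
        simpa using this)
    exact hprim T ψ h4 h5 h6
  push Not at hc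
  obtain ⟨xb, j, hj, hx⟩ := hc
  obtain ⟨c, hc1, hc2, hc3⟩ := exists_pow_modEq hp hr hne hcard hj hx
  obtain ⟨x, rfl⟩ := QuotientGroup.mk'_surjective (center G) xb
  obtain ⟨C, hC⟩ : ∃ C : Subgroup G, C = (E.map (QuotientGroup.mk' (center G)) ⊓
    centralizer (zpowers (QuotientGroup.mk' (center G) x) : Set (G ⧸ center G))).comap
      (QuotientGroup.mk' (center G)) := ⟨_, rfl⟩
  have hZC : center G ≤ C := by
    rw [hC]
    exact (QuotientGroup.ker_mk' _).ge.trans (ker_le_comap _ _)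
  have hEm : (E.map (QuotientGroup.mk' (center G))).comap (QuotientGroup.mk' (center G)) = E :=
    comap_map_eq_self (by rwa [QuotientGroup.ker_mk'])
  have hCE : C ≤ E := by
    rw [hC, ← hEm]
    exact comap_mono (by rw [hEm]; exact inf_le_left)
  have hCm : C.map (QuotientGroup.mk' (center G)) = E.map (QuotientGroup.mk' (center G)) ⊓
      centralizer (zpowers (QuotientGroup.mk' (center G) x) : Set (G ⧸ center G)) := by
    rw [hC, map_comap_eq_self_of_surjective (QuotientGroup.mk'_surjective _)]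
  have hCX : ⁅C, zpowers x⁆ ≤ center G := by
    rw [Cfsg.Lib.Core.commutator_le_iff_map_mk', hCm, MonoidHom.map_zpowers,
      commutator_eq_bot_iff_le_centralizer]
    exact inf_le_right
  have h3 : ⁅⁅zpowers x, E⁆, C⁆ = ⊥ := by
    refine commutator_commutator_eq_bot_of_rotate ?_ ?_
    · rw [commutator_eq_bot_iff_le_centralizer]
      exact ((commutator_mono le_rfl hCE).trans hEE).trans (center_le_centralizer _)
    · rw [commutator_eq_bot_iff_le_centralizer]
      exact hCX.trans (center_le_centralizer _)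
  have hsup : E ≤ ⁅zpowers x, E⁆ ⊔ C := by
    haveI := Fact.mk hp
    haveI := Fact.mk hr
    have h4 := Cfsg.Lib.Coprime.commutator_sup_centralizer
      (A := zpowers (QuotientGroup.mk' (center G) x)) (K := E.map (QuotientGroup.mk' (center G)))
      (by rw [normalizer_eq_top]; exact le_top)
      (IsPGroup.coprime_card_of_ne p r (Ne.symm hne) _ _ (isPGroup_zpowers hj)
        (IsPGroup.of_card hcard)) (Or.inl inferInstance)
    rw [← hCm, ← MonoidHom.map_zpowers, ← map_commutator, ← Subgroup.map_sup] at h4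
    have h5 := comap_map_eq (QuotientGroup.mk' (center G)) (⁅E, zpowers x⁆ ⊔ C)
    rw [h4, hEm, QuotientGroup.ker_mk', sup_assoc, sup_eq_left.2 hZC, commutator_comm] at h5
    exact h5.le
  have hCc : C ⊓ centralizer (C : Set G) ≤ center G := by
    refine le_trans (le_inf (inf_le_left.trans hCE) ?_) hEc
    rw [le_centralizer_iff]
    refine hsup.trans (sup_le ?_ ?_)
    · rw [commutator_eq_bot_iff_le_centralizer] at h3
      exact h3.trans (centralizer_le (SetLike.coe_subset_coe.2 inf_le_left))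
    · rw [le_centralizer_iff]
      exact inf_le_right
  obtain ⟨θ, hθ, hθ2⟩ := hcon C
  have h6 := sq_eq_relIndex hχ hk hZC ((commutator_mono hCE hCE).trans hEE) hCc hθ hθ2
  have h7 : (center G).relIndex C = r ^ c := by
    rw [← hc2, ← hCm, ← relIndex_ker, QuotientGroup.ker_mk']
  rw [h7] at h6
  obtain ⟨b, -, hb⟩ := (Nat.dvd_prime_pow hr).1
    ((dvd_pow_self (charDegree θ) two_ne_zero).trans h6.dvd)
  have hcb : c = b * 2 := by
    rw [hb, ← pow_mul] at h6
    exact (Nat.pow_right_injective hr.two_le h6).symm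
  refine bad_of_sq (q := r ^ (a - b)) hp ⟨r, a - b, hr.prime, by omega, rfl⟩
    ((pow_dvd_pow _ (by omega)).trans (ha ▸ h2)) ?_
  rw [← pow_mul, show (a - b) * 2 = k - c by omega]
  exact hc3

theorem winter_aux (p : ℕ) (hp : p.Prime) (n : ℕ) : ∀ (G : Type u) [Group G] [Finite G],
    Nat.card G = n → Group.IsSolvable G → ∀ χ : G → ℂ, IsIrrCharacter G χ →
    ¬ Bad p (charDegree χ) → ∀ x ∈ pgen p G, ∃ k : ℕ, χ (x ^ p ^ k) = χ 1 := by
  induction n using Nat.strong_induction_on with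
  | _ n ih =>
  intro G _ _ hn hs χ hχ hb x hx
  classical
  haveI := Fintype.ofFinite G
  by_cases hk : charKer χ = ⊥
  swap
  · haveI := hχ.isCharacter.charKer_normal
    obtain ⟨χ', h1, h2⟩ := hχ.exists_deflate (charKer χ)
      (fun x hx => hχ.isCharacter.mem_charKer_iff.1 hx)
    have hlt : Nat.card (G ⧸ charKer χ) < n := by
      rw [← hn, ← (charKer χ).card_mul_index, ← index_eq_card]
      have := (one_lt_card_iff_ne_bot _).2 hk
      have h0 : 0 < (charKer χ).index := Nat.pos_of_ne_zero index_ne_zero_of_finite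
      nlinarith
    have hd : charDegree χ' = charDegree χ := charDegree_congr (h2 1)
    obtain ⟨k, hk⟩ := ih _ hlt (G ⧸ charKer χ) rfl inferInstance χ' h1 (by rwa [hd]) _
      (map_pgen_le p (QuotientGroup.mk' _) ⟨x, hx, rfl⟩)
    refine ⟨k, ?_⟩
    rw [← h2, ← h2 1]
    exact hk
  by_cases hg : pgen p G = ⊤
  swap
  · haveI := pgen_normal (G := G) p
    have hlt : Nat.card (pgen p G) < n := by
      rw [← hn, ← (pgen p G).card_mul_index]
      have := one_lt_index_of_ne_top hg
      have h0 : 0 < Nat.card (pgen p G) := Nat.card_pos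
      nlinarith
    have h1 : ∀ θ : IrrCharacter (pgen p G), ∃ k : ℕ,
        classInner (fun y : pgen p G => χ y) θ ≠ 0 →
        (θ : pgen p G → ℂ) (⟨x, hx⟩ ^ p ^ k) = (θ : pgen p G → ℂ) 1 := by
      intro θ
      by_cases h : classInner (fun y : pgen p G => χ y) θ ≠ 0
      · obtain ⟨k, hk⟩ := ih _ hlt (pgen p G) rfl inferInstance θ θ.2 (fun hb' => hb
          (hb'.of_dvd (Cfsg.Lib.Clifford.charDegree_dvd_charDegree_of_over _ hχ θ.2 h)))
          ⟨x, hx⟩ (by rw [pgen_pgen]; exact mem_top _)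
        exact ⟨k, fun _ => hk⟩
      · exact ⟨0, fun h' => absurd h' h⟩
    choose f hf using h1
    obtain ⟨K, hK⟩ := (Set.finite_range f).bddAbove
    refine ⟨K, (hχ.isCharacter.restrict (pgen p G)).apply_eq_of_forall_constituent
      (g := ⟨x, hx⟩ ^ p ^ K) fun θ hθ h => ?_⟩
    have h2 := hf ⟨θ, hθ⟩ h
    have h3 : f ⟨θ, hθ⟩ ≤ K := hK ⟨_, rfl⟩
    obtain ⟨d, hd⟩ := Nat.exists_eq_add_of_le h3
    rw [hd, pow_add, pow_mul]
    exact hθ.isCharacter.mem_charKer_iff.1 (pow_mem (hθ.isCharacter.mem_charKer_iff.2 h2) _)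
  have hZ : center G = ⊤ := by
    by_contra hZ
    refine hb (bad_of_primitive hp hs hg hχ hk (fun T ψ h1 h2 h3 => hb ?_) hZ)
    obtain ⟨H, hH, hTH⟩ := (eq_top_or_exists_le_coatom T).resolve_left h1
    have hd : H.index ∣ charDegree χ := by
      refine (index_dvd_of_le hTH).trans ⟨charDegree ψ, charDegree_eq_of_apply_one ?_⟩
      rw [← h3, Cfsg.Lib.Induce.indFun_one, h2.apply_one_eq]
      push_cast
      rfl
    by_cases hpH : p ∣ H.index
    · exact ⟨p, hp.isPrimePow, hpH.trans hd, Or.inr (Or.inl (by simp [Int.modEq_zero_iff_dvd]))⟩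
    · obtain ⟨q, h4, h5, h6⟩ := exists_of_isCoatom p hp _ G rfl hs hg H hH hpH
      exact ⟨q, h4, h5.trans hd, Or.inr (Or.inr (by exact_mod_cast Int.natCast_modEq_iff.2 h6))⟩
  have hcomm : ∀ a b : G, Commute a b := fun a b =>
    (mem_center_iff.1 (hZ ▸ mem_top b : b ∈ center G) a)
  suffices ∃ k : ℕ, x ^ p ^ k = 1 by
    obtain ⟨k, hk⟩ := this
    exact ⟨k, by rw [hk]⟩
  clear hb
  induction hx using closure_induction with
  | mem x hx => exact hx
  | one => exact ⟨0, one_pow _⟩
  | mul x y _ _ h1 h2 =>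
    obtain ⟨a, ha⟩ := h1
    obtain ⟨b, hb⟩ := h2
    refine ⟨a + b, ?_⟩
    rw [(hcomm x y).mul_pow, pow_add, pow_mul, ha, mul_comm (p ^ a), pow_mul, hb]
    simp
  | inv x _ h1 =>
    obtain ⟨a, ha⟩ := h1
    exact ⟨a, by rw [inv_pow, ha, inv_one]⟩

/-- Winter's theorem. -/
theorem winter {G : Type u} [Group G] [Finite G] {χ : G → ℂ} (hχ : IsIrrCharacter G χ)
    (hf : ∀ g : G, χ g = χ 1 → g = 1) (hs : Group.IsSolvable G) {p : ℕ} (hp : p.Prime)
    (P : Sylow p G) (hP : ¬ (P : Subgroup G).Normal) : Bad p (charDegree χ) := by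
  by_contra hb
  apply hP
  have h1 : IsPGroup p (pgen p G) := by
    rintro ⟨x, hx⟩
    obtain ⟨k, hk⟩ := winter_aux p hp _ G rfl hs χ hχ hb x hx
    exact ⟨k, Subtype.ext (hf _ hk)⟩
  have h2 : (P : Subgroup G) ≤ pgen p G := fun x hx => by
    obtain ⟨k, hk⟩ := P.isPGroup' ⟨x, hx⟩
    exact subset_closure ⟨k, congrArg Subtype.val hk⟩
  rw [← P.is_maximal' h1 h2]
  exact pgen_normal p

end Cfsg.Lib.LinDeg
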